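/-
Involutions of the group realising `X24`.
-/
import Cfsg.Agent.Fi3.Fac
import Cfsg.Agent.Fi.Main24

set_option autoImplicit false

namespace CA.Fi3

open Cfsg Subgroup CA.Fi CA.TC CA.Cov CA.Loc

variable {G : Type*} [Group G] {D : Set G} {e : ℕ → G} {T lo hi : Tab}

theorem sepK24 (h : Real X24 D e) : SepK 4 D := sepK_nest h nest24 trans24 fun _ _ => sepK23
theorem tr24 (h : Real X24 D e) : TrK 5 D := trK_nest h nest24 trans24 fun _ _ => tr23
theorem nr24 (h : Real X24 D e) : NR 7 D := (sepK24 h).nr h.tt24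

theorem mem_norm_of_real (h : Real T D e) : D ⊆ normalizer D := fun x hx =>
  mem_set_normalizer_iff.2 fun y => ⟨h.conj_mem (subset_closure hx), fun hy => by
    simpa [mul_assoc] using h.conj_mem (inv_mem (subset_closure hx)) hy⟩

theorem fix24 [Finite G] (h : RG X24 D e) {x : G} (h2 : x * x = 1) : ∃ d ∈ D, Commute x d := by
  by_contra hn
  simp only [not_exists, not_and] at hn
  have hc := conjInv h
  have hd := h.mem 0 (by decide)
  have hd' := hc.cj x hd
  have c := commute_cj_of_no_fix h.toReal.tt24 h2 hd hd' (hn _ (hc.cj _ hd'))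
  have uu : ∀ z, cj x (cj x z) = z := fun z => by rw [← cj_mul, h2, cj_one]
  obtain ⟨e1, r1⟩ := exists_low h.toReal nest24 trans24 hd
  obtain ⟨e2, r2⟩ := exists_low r1 nest23 trans23 (z := cj x (e 0)) ⟨hd', fun a => hn _ hd (cj_eq_iff.1 a), c⟩
  have k : ∀ y ∈ nb (nb D (e 0)) (cj x (e 0)), cj x y ∈ nb (nb D (e 0)) (cj x (e 0)) :=
    fun y ⟨⟨a1, a2, a3⟩, a4, a5⟩ => ⟨⟨hc.cj x a1, fun b => a4 (by rw [← b, uu]), by
      simpa only [uu] using (commute_cj (g := x)).2 a5⟩, fun b => a2 (cj_inj b), commute_cj.2 a3⟩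
  obtain ⟨d, a, b⟩ := fix22 r2 (K := normalizer _) (fun g hg d hd => (mem_set_normalizer_iff.1 hg d).1 hd)
    (mem_norm_of_real r2) (mem_set_normalizer_iff.2 fun y => ⟨k y, fun hy => uu y ▸ k _ hy⟩) h2
  exact hn d a.1.1 b

/-- Transfer of a commuting list between two realisations. -/
theorem CL.transfer {G' : Type*} [Group G'] {D' : Set G'} {e' : ℕ → G'} (h : Real T D e) (h' : Real T D' e')
    {l : List G} (hl : CL D l) : ∃ s : List ℕ, (∀ p ∈ s, p < T.n) ∧ l = s.map e ∧ CL D' (s.map e') := by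
  choose! f f1 f2 using h.surj
  have m := hl.2.1
  refine ⟨l.map f, by simpa using fun a ha => f1 a (m a ha), ?_, ?_, by simpa using fun a ha => h'.mem _ (f1 a (m a ha)), ?_⟩
  · rw [List.map_map]; exact ((List.map_congr_left fun a ha => f2 a (m a ha)).trans (List.map_id l)).symm
  · rw [List.map_map]
    exact hl.1.map_on fun a ha b hb c => by
      rw [← f2 a (m a ha), ← f2 b (m b hb), h'.inj _ (f1 a (m a ha)) _ (f1 b (m b hb)) c]
  · simp only [List.mem_map, forall_exists_index, and_imp, forall_apply_eq_imp_iff₂]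
    exact fun a ha b hb => (h'.commute_iff (f1 a (m a ha)) (f1 b (m b hb))).2
      ((h.commute_iff (f1 a (m a ha)) (f1 b (m b hb))).1 (by rw [f2 a (m a ha), f2 b (m b hb)]; exact hl.2.2 a ha b hb))

theorem pf24 [Finite G] (h : RG X24 D e) {x : G} (h2 : x * x = 1) : ∃ m ≤ 4, PF D m x := by
  obtain ⟨d, hd, c⟩ := fix24 h h2
  obtain ⟨e, h, rfl⟩ := rg_base h trans24 hd
  have r : Real X23 (nb D (e 0)) _ := h.toReal.lower nest24
  have hx : x ∈ closure (nb D (e 0)) := cent24 h.toReal h.gen h.ctr ▸ mem_cent.2 c.symm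
  have q := rg_quot r r.sep23 rfl
  obtain ⟨m, hm, a⟩ := pf23 q q.toReal.tt23 (x := QuotientGroup.mk' _ ⟨x, hx⟩)
    (by rw [← map_mul, ← map_one (QuotientGroup.mk' _)]; exact congrArg _ (Subtype.ext h2))
  obtain ⟨l, a1, rfl, a2⟩ := pf_iff.1 a
  obtain ⟨s, b1, rfl, b2⟩ := a1.transfer q.toReal r
  have e1 : ((s.map (sub (closure (nb D (e 0))) fun p => e (p + 1))).prod : G) = (s.map fun p => e (p + 1)).prod := by
    rw [← coe_subtype, map_list_prod, List.map_map]
    exact congrArg _ (List.map_congr_left fun p hp => sub_val (subset_closure (r.mem p (b1 p hp))))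
  rw [show (s.map fun p => QuotientGroup.mk' (center _) (sub (closure (nb D (e 0))) (fun p => e (p + 1)) p)).prod =
    QuotientGroup.mk' _ (s.map (sub (closure (nb D (e 0))) fun p => e (p + 1))).prod by
      rw [map_list_prod, List.map_map]; rfl, QuotientGroup.mk'_apply, QuotientGroup.mk'_apply, QuotientGroup.eq] at a2
  have := zcent24 h.toReal h.gen h.ctr (x := ((s.map fun p => e (p + 1)).prod)⁻¹ * x) fun y y1 y2 y3 => by
    have := congrArg Subtype.val (mem_center_iff.1 a2 ⟨y, subset_closure ⟨y1, y2, y3⟩⟩)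
    simp only [coe_mul, coe_inv, e1] at this
    exact this.symm
  simp only [List.length_map] at hm
  rcases this with t | t
  · exact ⟨s.length, by omega, pf_iff.2 ⟨_, b2.mono fun a ha => (b2.2.1 a ha).1, by simp, inv_mul_eq_one.1 t⟩⟩
  · refine ⟨s.length + 1, by omega, pf_iff.2 ⟨_, cl_cons.2 ⟨hd, b2⟩, by simp, ?_⟩⟩
    rw [List.prod_cons, (commute_prod fun a ha => (b2.2.1 a ha).2.2).eq, ← t, mul_inv_cancel_left]

theorem uniq24 [Finite G] (h : RG X24 D e) {D' : Set G} (hD' : IsThreeTranspositionClass D') : D' = D :=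
  class_eq (conjInv h) (oneClass h.toReal trans24) hD' fun x hx => by
    obtain ⟨m, a⟩ := pf24 h (tt_sq hD'.1 hx)
    obtain ⟨a1, a2, a3⟩ := pf_pos (hD'.1.1 x hx) a
    interval_cases m
    · exact a3
    · exact absurd a3 (not_tt h.toReal (tr24 h.toReal) (s := [2, 3]) (s' := [696, 4]) (q := 2) (by decide +kernel) rfl
        (by decide) hD' hx)
    · exact absurd a3 (not_tt h.toReal (tr24 h.toReal) (s := [2, 3, 5]) (s' := [696, 4, 6]) (q := 2)
        (by decide +kernel) rfl (by decide) hD' hx)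
    · exact absurd a3 (not_tt h.toReal (tr24 h.toReal) (s := [2, 3, 5, 7]) (s' := [696, 4, 6, 3512]) (q := 2)
        (by decide +kernel) rfl (by decide) hD' hx)

end CA.Fi3
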