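/-
Centralisers of commuting transpositions in `Fi₂₄`.
-/
import Cfsg.Agent.Fi3.Half
import Cfsg.Agent.Fi3.Lv24

set_option autoImplicit false

namespace CA.Fi3

open Cfsg Subgroup CA.Fi CA.TC CA.Cov CA.Loc

universe u

variable {G : Type u} [Group G] {D E : Set G} {e : ℕ → G} {T : Tab} {l : List G} {z : G} {L C V : Subgroup G}

theorem tw24_1 (h : RG X24 D e) : Tw X23 (nb D (e 0)) (fun p => e (p + 1)) [e 0] :=
  (tw_nil h).step nest24 (sepK24 h.toReal).sep
    (fun _ _ _ _ h => ⟨cent24 h.toReal h.gen h.ctr, fun _ => zcent24 h.toReal h.gen h.ctr⟩)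
    (by simpa using zmem24 h.toReal h.gen h.ctr)

theorem tw24_2 (h : RG X24 D e) : Tw X22 (nb (nb D (e 0)) (e 1)) (fun p => e (p + 2)) [e 1, e 0] := by
  have r : Real X22 (nb (nb D (e 0)) (e 1)) fun p => e (p + 2) := (tw24_1 h).real.lower nest23
  refine (tw24_1 h).s23 (tw24_1 h).real.sep23 ?_
  simp only [List.mem_cons, List.not_mem_nil, or_false, forall_eq_or_imp, forall_eq]
  exact ⟨mem_of_triv h r (s := [1, 3, 5, 6, 42, 157, 665]) (by decide) (by decide +kernel) (by decide),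
    mem_of_triv h r (s := [1, 3, 5, 6, 399, 169, 680]) (by decide) (by decide +kernel) (by decide)⟩

theorem tw24_3 (h : RG X24 D e) :
    Tw XU (nb (nb (nb D (e 0)) (e 1)) (e 2)) (fun p => e (p + 3)) [e 2, e 1, e 0] := by
  have r : Real XU (nb (nb (nb D (e 0)) (e 1)) (e 2)) fun p => e (p + 3) := (tw24_2 h).real.lower nest22
  refine (tw24_2 h).s22 ?_
  simp only [List.mem_cons, List.not_mem_nil, or_false, forall_eq_or_imp, forall_eq]
  exact ⟨mem_of_triv h r (s := [0, 2, 4, 5, 199, 441, 665]) (by decide) (by decide +kernel) (by decide),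
    mem_of_triv h r (s := [0, 2, 4, 5, 41, 156, 664]) (by decide) (by decide +kernel) (by decide),
    mem_of_triv h r (s := [0, 2, 4, 5, 398, 168, 679]) (by decide) (by decide +kernel) (by decide)⟩

theorem class24 (h : RG X24 D e) : IsThreeTranspositionClass D := class_rg h trans24 (by decide) h.toReal.tt24

theorem not_mem_comm [Finite G] (h : RG X24 D e) {d : G} (hd : d ∈ D) : d ∉ commutator G := fun a => by
  have := h.toReal.index24 h.gen h.ctr
  rw [show commutator G = ⊤ from eq_top_iff.2 (h.gen ▸ (closure_le (commutator G)).2 fun y hy => by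
    simpa using mul_mem (inv_mem a) (mul_mem_commutator (class24 h) hd hy)), index_top] at this
  omega

theorem Tw.qs_half [Finite G] (h : Tw T E e l) (ht : T.Trans) (hs : ∀ (E : Set G) e, Real T E e → Sep E)
    (hq : ∀ (Q : Type u) [Group Q] (D : Set Q) (e : ℕ → Q), RG T D e → IsSimpleGroup Q)
    (hz : z ∈ l) (z2 : z * z = 1) (hL : z ∉ L) (hE : ∀ y ∈ E, y * z ∈ L) {s : List ℕ} (h1 : ∀ p ∈ s, p < T.n)
    (h2 : s.length = 7) (h3 : wd e s = z) : IsQuasisimple ↥(L ⊓ Cl l) := by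
  have r := real_twist h.real (h.comm hz) z2
  refine ⟨?_, hq _ _ _ (rg_quot r (hs _ _ r) (h.half hz z2 hL hE))⟩
  rw [h.half hz z2 hL hE]
  refine perfect_of_odd r ht h1 (by omega) ?_
  rw [wd_mul_cen fun p hp => h.comm hz _ (h.real.mem p (h1 p hp)), h3, h2, ← pow_succ', show 7 + 1 = 2 * 4 from rfl,
    pow_mul, sq, z2, one_pow]

theorem qs24_2 [Finite G] (h : RG X24 D e) : IsQuasisimple ↥(commutator G ⊓ Cl [e 1, e 0]) :=
  have m := h.mem 0 (by decide)
  (tw24_2 h).qs_half trans22 (fun _ _ h => h.sep22) (fun _ _ _ _ h => h.toReal.simple22 h.gen h.ctr) (z := e 0)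
    (by simp) (tt_sq h.toReal.tt24 m) (not_mem_comm h m) (fun _ hy => mul_mem_commutator (class24 h) hy.1.1 m)
    (s := [1, 3, 5, 6, 399, 169, 680]) (by decide) rfl
    ((wd_reindex e _ _).trans (wd_eq_of_triv h (by decide +kernel) (by decide)))

theorem qs24_3 [Finite G] (h : RG X24 D e) : IsQuasisimple ↥(commutator G ⊓ Cl [e 2, e 1, e 0]) :=
  have m := h.mem 0 (by decide)
  (tw24_3 h).qs_half transU (fun _ _ h => h.sepU) (fun _ _ _ _ h => h.toReal.simpleU h.gen h.ctr) (z := e 0)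
    (by simp) (tt_sq h.toReal.tt24 m) (not_mem_comm h m) (fun _ hy => mul_mem_commutator (class24 h) hy.1.1.1 m)
    (s := [0, 2, 4, 5, 398, 168, 679]) (by decide) rfl
    ((wd_reindex e _ _).trans (wd_eq_of_triv h (by decide +kernel) (by decide)))

theorem facHom24 [Finite G] (h : RG X24 D e) {n : ℕ} (d : Fin n → G) (c : CL D (List.ofFn d)) (h0 : 0 < n) (h3 : n ≤ 3)
    (hC : C = commutator G ⊓ centralizer {(List.ofFn d).prod}) : ∃ φ : C →* Equiv.Perm (Fin n), Function.Surjective φ ∧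
      φ.ker = (commutator G ⊓ Cl (List.ofFn d)).subgroupOf C := by
  obtain ⟨φ, a, b, -⟩ := exists_facHom (conjInv h) (tr24 h.toReal) (by omega) d c
    (fun l hl h3 hp x => ((nr24 h.toReal).uniq h.toReal.tt24 hl c (by omega) (by simp; omega) hp x).1) C
    (hC ▸ inf_le_right) fun g hg => by
      by_cases a : g ∈ commutator G
      · exact ⟨g, hC ▸ ⟨a, mem_cent.2 hg⟩, fun _ => rfl⟩
      · have m : d ⟨0, h0⟩ ∈ List.ofFn d := List.mem_ofFn.2 ⟨_, rfl⟩
        refine ⟨g * d ⟨0, h0⟩, hC ▸ ⟨(mul_mem_iff_of_index_two (h.toReal.index24 h.gen h.ctr)).2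
          (iff_of_false a (not_mem_comm h (c.2.1 _ m))), mem_cent.2 (hg.mul_right (c.commute_prod m).symm)⟩, fun i => ?_⟩
        rw [cj_mul, cj_eq_iff.2 (c.2.2 _ m _ (List.mem_ofFn.2 ⟨i, rfl⟩))]
  refine ⟨φ, a, b.trans ?_⟩
  ext x
  exact ⟨fun a => ⟨(hC.le x.2).1, a⟩, fun a => a.2⟩

theorem Cl_le_cent (l : List G) : Cl l ≤ centralizer {l.prod} := fun _ hg =>
  mem_cent.2 (commute_prod fun x hx => (mem_Cl.1 hg x hx).symm).symm

theorem cent24_two [Finite G] (h : RG X24 D e) {Q : Type*} [Group Q] [Finite Q] {D' : Set Q} {e' : ℕ → Q}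
    (h' : RG X22 D' e') {d₁ d₂ : G} (c : CL D [d₁, d₂]) {K : Subgroup G} (hK : K = commutator G ⊓ centralizer {d₁, d₂})
    (hC : C = commutator G ⊓ centralizer {d₁ * d₂}) [((zpowers (d₁ * d₂)).subgroupOf C).Normal] :
    IsQuasisimple K ∧ K = (generalizedFittingSubgroup C).map C.subtype ∧ K ≤ C ∧ (K.subgroupOf C).index = 2 ∧
      d₁ * d₂ ∈ K ∧ Nonempty (C ⧸ (zpowers (d₁ * d₂)).subgroupOf C ≃* MulAut Q) := by
  have hD := h.toReal.tt24
  obtain ⟨e, h, a⟩ := rg_std h (tr24 h.toReal) (s := [1, 0]) (by decide +kernel) c rfl (by simp)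
  obtain ⟨rfl, rfl⟩ : d₁ = e 1 ∧ d₂ = e 0 := by simpa using a
  obtain ⟨h₁, h₂, -, c12⟩ := cl_two.1 c
  have e3 : C = commutator G ⊓ centralizer {[e 1, e 0].prod} := by simp [hC]
  obtain rfl : K = commutator G ⊓ Cl [e 1, e 0] := by rw [hK, Cl]; congr 2; ext; simp
  have t := tw24_2 h
  have q := qs24_2 h
  have cl := class24 h
  obtain ⟨φ, a, b⟩ := facHom24 h ![e 1, e 0] c (by simp) (by simp) e3
  change φ.ker = (commutator G ⊓ Cl [e 1, e 0]).subgroupOf C at b
  have n : ((commutator G ⊓ Cl [e 1, e 0]).subgroupOf C).Normal := b ▸ φ.normal_ker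
  have le : commutator G ⊓ Cl [e 1, e 0] ≤ C := e3 ▸ inf_le_inf_left _ (Cl_le_cent _)
  have hE : ∀ y ∈ nb (nb D (e 0)) (e 1), y * e 1 ∈ commutator G := fun _ hy => mul_mem_commutator cl hy.1.1 h₁
  have nm : C ≤ normalizer (nb (nb D (e 0)) (e 1)) := e3 ▸ nb_two c ▸
    inf_le_right.trans (cent_le_norm hD (conjInv h) (nr24 h.toReal) c (by simp) (by simp))
  have e4 : zpowers (e 1 * e 0) = commutator G ⊓ closure {a | a ∈ [e 1, e 0]} := by
    rw [inf_closure_twist (E := {a | a ∈ [e 1, e 0]}) (z := e 1) (by simpa using c12) (tt_sq hD h₁)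
      (subset_closure (by simp)) (not_mem_comm h h₁) (fun y hy => mul_mem_commutator cl (c.2.1 y hy) h₁),
      show {a | a ∈ [e 1, e 0]} = {e 1, e 0} by ext; simp]
    simp [Set.image_insert_eq, tt_sq hD h₁, c12.eq, zpowers_eq_closure]
  obtain ⟨ρ, ρ1, ρ2⟩ := t.aut h' (fun _ _ h => h.sep22) (z := e 1) (by simp) (tt_sq hD h₁) (not_mem_comm h h₁) hE nm
    (e3 ▸ inf_le_left) le e4 (by
      rw [index_fac φ a b, card22 h'.toReal h'.gen h'.ctr]
      exact card_aut22 h')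
  exact ⟨q, t.Fstar t.real.sep22 (by simp) hE nm (e3 ▸ inf_le_left) le q, le, index_fac φ a b,
    inf_le_inf_left _ t.le_Cl (e4 ▸ mem_zpowers _), ⟨(QuotientGroup.quotientMulEquivOfEq ρ2.symm).trans
      (QuotientGroup.quotientKerEquivOfSurjective ρ ρ1)⟩⟩

end CA.Fi3
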