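/-
The classes of outer involutions of `Fi₂₂` and their centralisers.
-/
import Cfsg.Agent.Fi3.DOut

set_option autoImplicit false

namespace CA.Fi3

open Cfsg Subgroup CA.Fi CA.TC CA.Cov CA.Loc

variable {G : Type*} [Group G] {D : Set G} {e : ℕ → G}

theorem map_phi' {K : Type*} [Group K] (φ : G →* K) (a : ℕ → G) (n v : ℕ) :
    φ (phi a n v) = phi (fun i => φ (a i)) n v := by
  induction n with
  | zero => exact map_one φ
  | succ n ih => rw [phi, phi, map_mul, ih]; split_ifs <;> simp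

theorem base_map {K : Type*} [Group K] {φ : G →* K} (hφ : Function.Injective φ) {a : ℕ → G} {N n : ℕ} {c : ℕ → ℕ}
    (h : Base a N n c) : Base (fun i => φ (a i)) N n c :=
  ⟨⟨⟨fun i hi => by rw [← map_mul, h.ci.1 i hi, map_one], fun i hi j hj => (h.ci.2 i hi j hj).map φ⟩, h.le, h.lt,
    fun i hi => by rw [← map_phi', ← h.co i hi]⟩, fun v hv a => h.inj v hv (hφ (by rw [map_phi', a, map_one]))⟩

/-- The setting: the base has the standard coordinates and the order is bounded. -/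
structure SB (D : Set G) (e : ℕ → G) (s : G) : Prop extends SR X22 Cov.psi22 D e s where
  base : Base (fun i => e (bB i)) 22 10 c22
  two : ¬ 2 ^ 19 ∣ Nat.card G

/-- The generators. -/
noncomputable def Γ (e : ℕ → G) (s : G) (k : ℕ) : G := ws X22 e s (nthW GW k)

namespace SB

variable {s : G}

theorem gen (h : SB D e s) {k : ℕ} (hk : k < 9) :
    Γ e s k * Γ e s k = 1 ∧ Acts (fun i => e (bB i)) 22 (Γ e s k) (PG k) := by
  have a := band_iff.1 (allLt_spec chkPG k hk)
  refine ⟨(ws_append _ _).symm.trans (h.eq_of a.1), fun i hi => ?_⟩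
  have b := allLt_spec a.2 i hi
  rw [frc_eq, band_iff, blt_iff, beq_iff] at b
  exact ⟨b.1, (h.ws_conj _ ((by decide +kernel : ∀ i < 22, bB i < X22.n) i hi)).2.trans (congrArg e b.2)⟩

theorem masks (h : SB D e s) {k m : ℕ} (hk : k < 9) {rk j : ℕ → ℕ} {seed : ℕ → Bool}
    (hc : chkM k m rk j seed = true) (hm : ∀ i < m, 10 ≤ i → i - 6 < 9 ∧ Commute (Γ e s (i - 6)) (Γ e s k))
    {v : ℕ} (hv : v < 1024) (h2 : Γ e s k * phi (fun i => e (bB i)) 10 v * (Γ e s k * phi (fun i => e (bB i)) 10 v) = 1) :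
    ∃ u, seed u = true ∧ IsConj (Γ e s k * phi (fun i => e (bB i)) 10 v) (Γ e s k * phi (fun i => e (bB i)) 10 u) := by
  obtain ⟨g1, g2⟩ := h.gen hk
  have b := h.base
  refine ind_rk (n := 1024) (P := fun v => lin c22 (PG k) 10 v = v → ∃ u, seed u = true ∧
    IsConj (Γ e s k * phi (fun i => e (bB i)) 10 v) (Γ e s k * phi (fun i => e (bB i)) 10 u)) rk (fun v hv => ?_) v hv
    (b.phi_inj (b.lin_lt g2 v) hv ?_)
  · have := loopB_lt hc hv
    simp only [bor_iff, bne_iff, frc_eq, band_iff, blt_iff, beq_iff] at this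
    rcases this with a | a | ⟨a1, a2, a3, a4⟩
    · exact Or.inl fun c => absurd c a
    · exact Or.inl fun _ => ⟨v, a, IsConj.refl _⟩
    refine Or.inr ⟨_, a2, a4, fun c _ => (c a3).imp fun u c => ⟨c.1, IsConj.trans ?_ c.2⟩⟩
    cases hi : blt (j v) 10
    · obtain ⟨c1, c2⟩ := hm _ a1 (not_lt.1 fun c => by rw [blt_iff.2 c] at hi; cases hi)
      refine isConj_iff.2 ⟨Γ e s (j v - 6), ?_⟩
      rw [← b.conj (h.gen c1).2, ← mul_assoc, c2.eq]; group
    · have c := (blt_iff.1 hi).trans (show 10 < 22 by decide)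
      refine isConj_iff.2 ⟨e (bB (j v)), ?_⟩
      have g3 : Γ e s k * e (bB (j v)) * (Γ e s k)⁻¹ = e (bB (PG k (j v))) := (g2 _ c).2
      have g4 : e (bB (j v)) * e (bB (j v)) = 1 := b.ci.1 _ c
      show _ = _ * phi _ _ (_ ^^^ _ ^^^ _)
      rw [b.ci.phi_xor b.le, b.ci.phi_xor b.le, ← b.co _ c, ← b.co _ (g2 _ c).1, ← g3,
        inv_eq_of_mul_eq_one_right g4, inv_eq_of_mul_eq_one_right g1]
      simp only [← mul_assoc, g1, one_mul]
  · rw [← b.conj g2, inv_eq_of_mul_eq_one_right g1]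
    rw [← mul_assoc] at h2
    rw [eq_inv_of_mul_eq_one_left h2, inv_eq_of_mul_eq_one_right (b.ci.phi_sq b.le v)]

variable [Finite G]

theorem cA (h : SB D e s) {x y : G} {σ : ℕ → ℕ} (hx : Acts (fun i => e (bB i)) 22 x σ)
    (hy : Acts (fun i => e (bB i)) 22 y σ) : x⁻¹ * y ∈ grp (fun i => e (bB i)) 22 := by
  have k : ∀ g, g ∈ Cl (((List.range 22).map bB).map e) ↔ ∀ i < 22, Commute (e (bB i)) g := fun g => by
    simp only [mem_Cl, List.map_map, List.forall_mem_map, List.mem_range, Function.comp]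
  have c := card_CB h.toReal h.inv
  rw [h.ctr, card_bot] at c
  rw [eq_of_le_of_card_ge (fun z hz => (k z).2 fun i hi => h.base.comm (mem_grp hi) hz) (h.base.card ▸ c)]
  exact (k _).2 fun i hi => (hy.commute hx i hi).symm

theorem syl (h : SB D e s) {t : G} (h2 : t * t = 1) :
    ∃ g, ∃ j < 256, Acts (fun i => e (bB i)) 22 (g⁻¹ * t * g) (tpO j) := by
  set a := fun i => e (bB i)
  have b := h.base
  have k := allLt_spec chkTp
  simp only [band_iff, bor_iff, beq_iff] at k
  have k1 : ∀ j < 256, ∀ i < 4, mtO i j < 256 ∧ ∀ t < 22, PG i (tpO j t) = tpO (mtO i j) t := fun j hj i hi => by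
    have := allLt_spec (k j hj).1 i hi
    rw [frc_eq, band_iff, blt_iff] at this
    exact ⟨this.1, fun t ht => by simpa only [frc_eq, beq_iff] using allLt_spec this.2 t ht⟩
  have k0 : ∀ t < 22, t = tpO 0 t := by decide +kernel
  set S := closure (a '' Set.Iio 22 ∪ Γ e s '' Set.Iio 4)
  have act : ∀ x ∈ S, ∃ j < 256, Acts a 22 x (tpO j) := fun x hx => by
    have key : ∀ y ∈ a '' Set.Iio 22 ∪ Γ e s '' Set.Iio 4, y⁻¹ = y ∧ ∀ z,
        (∃ j < 256, Acts a 22 z (tpO j)) → ∃ j < 256, Acts a 22 (y * z) (tpO j) := by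
      rintro _ (⟨i, hi, rfl⟩ | ⟨i, hi, rfl⟩)
      · exact ⟨inv_eq_of_mul_eq_one_right (b.ci.1 i hi), fun y ⟨j, hj, hy⟩ =>
          ⟨j, hj, (Acts.of_commute fun k hk => b.ci.2 i hi k hk).mul hy⟩⟩
      · have c := h.gen (hi.trans (show 4 < 9 by decide))
        exact ⟨inv_eq_of_mul_eq_one_right c.1, fun y ⟨j, hj, hy⟩ =>
          ⟨_, (k1 j hj i hi).1, (c.2.mul hy).congr (k1 j hj i hi).2⟩⟩
    induction hx using closure_induction_left with
    | one => exact ⟨0, by decide, Acts.one.congr k0⟩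
    | mul_left y hy z _ ih => exact (key y hy).2 z ih
    | inv_mul_cancel y hy z _ ih => rw [(key y hy).1]; exact (key y hy).2 z ih
  have ex : ∀ j < 256, ∃ x ∈ S, Acts a 22 x (tpO j) := ind_rk id fun j hj => by
    rcases (k j hj).2.1 with rfl | c
    · exact Or.inl ⟨1, one_mem _, Acts.one.congr k0⟩
    obtain ⟨i, hi, c⟩ := anyLt_spec c
    rw [frc_eq, band_iff, blt_iff, beq_iff] at c
    refine Or.inr ⟨_, c.1.trans hj, c.1, fun ⟨x, hx, d⟩ => ⟨_, mul_mem (subset_closure (Or.inr ⟨i, hi, rfl⟩)) hx,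
      ((h.gen (hi.trans (by decide))).2.mul d).congr fun t ht => ?_⟩⟩
    rw [(k1 _ (c.1.trans hj) i hi).2 t ht, c.2]
  have p : IsPGroup 2 S := fun ⟨x, hx⟩ => by
    obtain ⟨j, hj, c⟩ := act x hx
    have := b.sq (h.cA Acts.one ((acts_wd (γ := fun _ => x) (P := fun _ => tpO j) (K := 1) (fun _ _ => c)
      (w := [0, 0, 0, 0, 0, 0, 0, 0]) (by simp)).congr fun t ht => beq_iff.1 (allLt_spec (k j hj).2.2.2.1 t ht)))
    refine ⟨4, Subtype.ext ?_⟩
    simp only [wd_cons, wd_nil, inv_one, one_mul, mul_one] at this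
    rw [coe_pow, coe_one, ← this]
    simp only [show 2 ^ 4 = 16 from rfl, pow_succ, pow_zero, one_mul, mul_assoc]
  have c : 256 * 2 ^ 10 ≤ Nat.card S := by
    choose! g hg ha using ex
    rw [← b.card]
    refine mul_le_card_of (closure_mono Set.subset_union_left) g hg fun j hj l hl c => ?_
    have e1 : ∀ t < 22, tpO j t = tpO l t := fun t ht => by
      have u := ((ha j hj).mul (Acts.of_commute fun _ hi => b.comm c (mem_grp hi)) t ht)
      rw [mul_inv_cancel_left, (ha l hl t ht).2] at u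
      have v : ∀ i < 22, bB i < X22.n ∧ ∀ j < 22, bB i = bB j → i = j := by decide +kernel
      exact ((v _ (ha l hl t ht).1).2 _ u.1 (h.inj _ (v _ (ha l hl t ht).1).1 _ (v _ u.1).1 u.2)).symm
    by_contra ne
    rcases Nat.lt_or_gt_of_ne ne with c | c
    · obtain ⟨t, ht, d⟩ := anyLt_spec (allLt_spec (k l hl).2.2.1 j c); exact bne_iff.1 d (e1 t ht).symm
    · obtain ⟨t, ht, d⟩ := anyLt_spec (allLt_spec (k j hj).2.2.1 l c); exact bne_iff.1 d (e1 t ht)
  obtain ⟨g, -, R, r1, -, r2, r3⟩ := exists_conj_two (K := ⊤) (R := zpowers t) p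
    (by rintro ⟨_, n, rfl⟩; exact ⟨1, Subtype.ext (by
      show (t ^ n) ^ 2 ^ 1 = 1
      rw [pow_one, pow_two, ← (Commute.refl t).mul_zpow, h2, one_zpow])⟩)
    le_top le_top
  obtain ⟨r, hr⟩ := IsPGroup.iff_card.1 r1
  have : r ≤ 18 := by
    by_contra c
    exact h.two ((pow_dvd_pow 2 (by omega)).trans (hr ▸ card_subgroup_dvd_card R))
  rw [← eq_of_le_of_card_ge r2 (hr ▸ (Nat.pow_le_pow_right (by decide) this).trans c)] at r3
  exact ⟨g, act _ (r3 t (mem_zpowers t))⟩

theorem cls (h : SB D e s) {t : G} (h2 : t * t = 1) : (∃ g, g⁻¹ * t * g ∈ closure D) ∨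
    IsConj t s ∨ IsConj t (s * e 6) ∨ IsConj t (s * (e 6 * e 42)) := by
  obtain ⟨g, j, hj, a⟩ := h.syl h2
  have b := h.base
  have k := allLt_spec chkTp j hj
  simp only [band_iff, bor_iff] at k
  have v : ∀ i < 22, bB i < X22.n ∧ ∀ j < 22, bB i = bB j → i = j := by decide +kernel
  rcases k.2.2.2.2 with c | ⟨c1, c2⟩
  · obtain ⟨i, hi, c⟩ := anyLt_spec c
    have u := a.mul a i hi
    rw [show g⁻¹ * t * g * (g⁻¹ * t * g) = g⁻¹ * (t * t) * g by group, h2] at u
    exact absurd ((v _ u.1).2 _ hi (h.inj _ (v _ u.1).1 _ (v _ hi).1 (by simpa using u.2.symm)))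
      (by simpa only [frc_eq] using bne_iff.1 c)
  have w := acts_wd (fun k hk => (h.gen hk).2) fun k hk => blt_iff.1 (allL_spec c1 k hk)
  have r : nthW [[], [1], [0], [8]] (crO j) ∈ [[], [1], [0], [8]] :=
    (nthW_mem _ _).elim (fun a => by rw [a]; exact List.mem_cons_self) id
  generalize nthW [[], [1], [0], [8]] (crO j) = u at c2 r
  have w' : Acts (fun i => e (bB i)) 22 (wd (Γ e s) u) (pwd PG u) := acts_wd (fun k hk => (h.gen hk).2) (by
    simp only [List.mem_cons, List.not_mem_nil, or_false] at r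
    rcases r with rfl | rfl | rfl | rfl <;> simp)
  obtain ⟨m, hm, c⟩ := b.exists_phi (h.cA ((w.mul w').congr fun i hi => by
    simpa only [frc_eq, beq_iff] using allLt_spec c2 i hi) (a.mul w))
  generalize wd (Γ e s) (nthW cwO j) = x at c
  have c3 : (g * x)⁻¹ * t * (g * x) = wd (Γ e s) u * phi (fun i => e (bB i)) 10 m := by rw [c]; group
  have c4 : IsConj t (wd (Γ e s) u * phi (fun i => e (bB i)) 10 m) := isConj_iff.2 ⟨(g * x)⁻¹, by rw [← c3, inv_inv]⟩
  have c5 : wd (Γ e s) u * phi (fun i => e (bB i)) 10 m * (wd (Γ e s) u * phi (fun i => e (bB i)) 10 m) = 1 := by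
    rw [← c3, show ∀ y, y⁻¹ * t * y * (y⁻¹ * t * y) = y⁻¹ * (t * t) * y from fun y => by group, h2]; group
  have c6 : phi (fun i => e (bB i)) 10 m ∈ closure D :=
    phi_mem (fun i hi => subset_closure (h.mem _ (v i (by omega)).1)) m
  have s0 : Γ e s 0 = s := (ws_s (by decide) []).trans (mul_one s)
  simp only [List.mem_cons, List.not_mem_nil, or_false] at r
  rcases r with rfl | rfl | rfl | rfl <;> simp only [wd_cons, wd_nil, mul_one] at c3 c4 c5
  · exact Or.inl ⟨_, c3 ▸ mul_mem (one_mem _) c6⟩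
  · refine Or.inl ⟨_, c3 ▸ mul_mem ?_ c6⟩
    rw [Γ, show nthW GW 1 = [2, 18] from rfl, ws_pt (by decide), ws_pt (by decide)]
    exact mul_mem (subset_closure (h.mem _ (by decide))) (mul_mem (subset_closure (h.mem _ (by decide))) (one_mem _))
  · obtain ⟨u, u1, u2⟩ := h.masks (by decide) chkMS (fun i hi c => ⟨by omega, by
      obtain ⟨i, rfl⟩ := Nat.exists_eq_add_of_le' c
      exact (ws_append _ _).symm.trans ((h.eq_of (allLt_spec chkCG i (by omega))).trans (ws_append _ _))⟩) hm c5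
    have u3 := c4.trans u2
    rw [s0] at u3
    simp only [bor_iff, beq_iff] at u1
    rcases u1 with rfl | rfl | rfl
    · exact Or.inr (Or.inl (by simpa [phi_zero] using u3))
    · exact Or.inr (Or.inr (Or.inl (by rwa [show 16 = 2 ^ 4 from rfl, phi_two_pow (by decide),
        show bB 4 = 6 by decide +kernel] at u3)))
    · exact Or.inr (Or.inr (Or.inr (by rwa [show 80 = 2 ^ 4 ^^^ 2 ^ 6 from rfl, b.ci.phi_xor b.le, phi_two_pow (by decide),
        phi_two_pow (by decide), show bB 4 = 6 by decide +kernel, show bB 6 = 42 by decide +kernel] at u3)))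
  · obtain ⟨u, u1, u2⟩ := h.masks (by decide) chkMT (fun i hi c => by omega) hm c5
    rw [beq_iff.1 u1, phi_zero, mul_one] at u2
    refine Or.inr (Or.inr (Or.inr ((c4.trans u2).trans (isConj_iff.2 ⟨_, mul_inv_eq_of_eq_mul
      (((ws_append _ _).symm.trans (h.eq_of chkTau)).trans ((ws_append _ _).trans ?_))⟩))))
    rw [ws_s (by decide), ws_pt (by decide), ws_pt (by decide), ws_nil, mul_one]

end SB

namespace OS

variable [Finite G] {s : MulAut G}

theorem sb (h : OS D e s) : SB (MulAut.conj '' D) (fun p => MulAut.conj (e p)) s := by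
  have := finite_aut (G := G)
  refine ⟨h.sr, ?_, fun c => ?_⟩
  · have : Base _ 22 10 c22 := base_map (conj_injective h.ctr) (loc22 h.toRG).base
    convert this using 3 with i
    unfold bB LD.a
    split_ifs <;> rfl
  · obtain ⟨k, hk⟩ := card_dvd_of_injective _ (conj_injective h.ctr)
    have a := card_aut22 h.toRG
    have b : 0 < Nat.card (MulAut G) := Nat.card_pos
    rw [hk, card22 h.toReal h.gen h.ctr] at a b c
    have : k = 1 ∨ k = 2 := by clear c; omega
    rcases this with rfl | rfl <;> norm_num at c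

theorem classify (h : OS D e s) (t : MulAut G) (h2 : orderOf t = 2) (hn : t ∉ (MulAut.conj : G →* MulAut G).range) :
    IsConj t s ∨ IsConj t (s * MulAut.conj (e 6)) ∨ IsConj t (s * MulAut.conj (e 6 * e 42)) := by
  have := finite_aut (G := G)
  rw [map_mul]
  refine (h.sb.cls (mul_self_of_orderOf_two h2)).resolve_left fun ⟨g, hg⟩ => hn ?_
  rw [← MonoidHom.map_closure, h.gen, ← MonoidHom.range_eq_map] at hg
  obtain ⟨x, hx⟩ := hg
  exact ⟨g x, by rw [← cj_conj, hx, Fi.cj]; group⟩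

theorem fcs (h : OS D e s) : fc (MulAut.conj '' D) s = 360 ∧ fc (MulAut.conj '' D) (s * MulAut.conj (e 6)) = 64 ∧
    fc (MulAut.conj '' D) (s * MulAut.conj (e 6 * e 42)) = 72 := by
  have a := (h.sr.word [3510, 6]).fc (d := 6) (by decide)
  have b := (h.sr.word [3510, 6, 42]).fc (d := 6) (by decide)
  rw [ws_s (by decide), ws_pt (by decide), ws_nil, mul_one] at a
  rw [ws_s (by decide), ws_pt (by decide), ws_pt (by decide), ws_nil, mul_one, ← map_mul] at b
  exact ⟨(h.sr.fc (d := 6) (by decide)).trans (by decide +kernel), a.trans (by decide +kernel),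
    b.trans (by decide +kernel)⟩

omit [Finite G] in
theorem fix_sa (h : OS D e s) (g : G) : (s * MulAut.conj (e 6)) g = g ↔ g ∈ Fx s ⊓ centralizer {e 6} := by
  have h6 : 6 < X22.n := by decide
  have k : ∀ g, Commute (e 6) g → ((s * MulAut.conj (e 6)) g = g ↔ s g = g) := fun g c => by
    rw [MulAut.mul_apply, MulAut.conj_apply, c.eq, mul_inv_cancel_right]
  refine ⟨fun hg => ?_, fun hg => (k g (mem_cent.1 hg.2)).2 hg.1⟩
  have k1 : ∀ d ∈ D, (s * MulAut.conj (e 6)) d = d → Commute (e 6) d := fun d hd a => by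
    obtain ⟨q, hq, rfl⟩ := h.surj d hd
    rw [MulAut.mul_apply, MulAut.conj_apply, h.toQReal.op h6 hq, h.act _ (h.ok.op_lt h6 hq)] at a
    exact h.toQReal.commute_of_op h6 hq (beq_iff.1 ((bor_iff.1 (rng_spec chkSa q (Nat.zero_le _) hq)).resolve_left
      fun b => bne_iff.1 b (h.inj _ (aut22.lt _ (h.ok.op_lt h6 hq)) _ hq a)))
  have k2 : ∀ p < X22.n, Cov.psi22 p = p → X22.op 6 p = p → Commute (e p) (g * e 6 * g⁻¹) := fun p hp a b => by
    have := k1 _ (h.conj_mem' g⁻¹ (h.mem p hp)) (by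
      rw [map_mul, map_mul, map_inv, map_inv, map_inv, hg,
        (k _ (h.toQReal.commute_of_op h6 hp b)).2 ((h.fix hp).2 a)])
    exact (commute_cj (g := g⁻¹)).1 (by rw [show cj g⁻¹ (g * e 6 * g⁻¹) = e 6 from cj_inv_cj g _]; exact this.symm)
  obtain ⟨q, hq, a⟩ := h.surj _ (h.conj_mem' g (h.mem 6 h6))
  have c : Commute (e 6) g := by
    rcases bor_iff.1 (rng_spec chkA6 q (Nat.zero_le _) hq) with b | b
    · exact (cj_eq_iff.1 (beq_iff.1 b ▸ a.symm)).symm
    obtain ⟨i, hi, b⟩ := anyLt_spec b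
    have c := allLt_spec chkF63 i (by omega)
    rw [frc_eq, band_iff, beq_iff, beq_iff] at c
    have l := (real_chkT h.toReal chk63).1 i (hi.trans (by decide))
    rw [opl_cons, opl_cons, show Cov.opl X22 [] q = q from rfl,
      (h.commute_iff h6 hq).1 (a ▸ k2 6 h6 (by decide +kernel) (by decide +kernel)),
      (h.commute_iff l hq).1 (a ▸ k2 _ l c.1 c.2)] at b
    exact absurd rfl (bne_iff.1 b)
  exact ⟨(k g c).1 hg, mem_cent.2 c⟩

theorem cent_sab (h : OS D e s) : ∃ K O : Subgroup G, (∀ g : G, g ∈ K ↔ (s * MulAut.conj (e 6 * e 42)) g = g) ∧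
    O = (pCore 2 K).map K.subtype ∧ IsElementaryAbelian 2 O ∧ Nat.card O = 64 ∧ ∃ _ : (O.subgroupOf K).Normal,
      Nonempty (K ⧸ O.subgroupOf K ≃* isometryGroup (ZMod 2) (quadFormMinus 2 (ZMod 2) 1 1)) := by
  have := finite_aut (G := G)
  have u := card_Csab (h.sr.word [3510, 6, 42])
  rw [ws_s (by decide), ws_pt (by decide), ws_pt (by decide), ws_nil, mul_one, ← map_mul] at u
  have v := (two_mul_fix h.ctr (t := s * MulAut.conj (e 6 * e 42)) (fun c => h.not_inner
    ((mul_mem_cancel_right (MonoidHom.mem_range.2 ⟨_, rfl⟩)).1 c)) (l := []) (by simp) (C := Fx _) (fun g hg => hg) (by simp [Cl_nil])).trans u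
  obtain ⟨lt, r⟩ := real_chkT h.toReal chk72
  set E := (fun p => e (i72 p)) '' Set.Iio T72.n
  have le : closure E ≤ Fx (s * MulAut.conj (e 6 * e 42)) := (closure_le _).2 (by
    rintro _ ⟨p, hp, rfl⟩
    have a := allLt_spec chkF72 p hp
    rw [frc_eq, beq_iff] at a
    have b := h.ok.op_lt (p := 42) (by decide) (lt p hp)
    have c := h.ok.op_lt (p := 6) (by decide) b
    refine mem_Fx.2 (Eq.trans ?_ ((h.act _ c).trans (congrArg e a)))
    rw [← h.toQReal.op (by decide) b, ← h.toQReal.op (by decide) (lt p hp), MulAut.mul_apply, MulAut.conj_apply]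
    congr 1; group)
  obtain ⟨π, π1, π2, c, c2⟩ := onto_O6 r
  let o : ℕ → G := fun i => e (i72 (t1 i)) * e (i72 (t2 i))
  have k := allLt_spec chkTw
  simp only [band_iff, blt_iff, beq_iff] at k
  have o1 : ∀ i < 6, o i * o i = 1 := fun i hi => by
    simpa [o, mul_assoc] using trivL_spec h.toReal h.gen h.ctr (k i hi).2.2.2.1
  have b : Base o 6 6 (2 ^ ·) := by
    refine ⟨⟨⟨o1, fun i hi j hj => ?_⟩, le_rfl, fun i hi => Nat.pow_lt_pow_right (by decide) hi,
      fun i hi => (phi_two_pow hi).symm⟩, fun v hv a => ?_⟩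
    · have : o i * o j * (o i * o j) = 1 := by
        simpa [o, mul_assoc] using trivL_spec h.toReal h.gen h.ctr (allLt_spec (k i hi).2.2.2.2 j hj)
      exact (eq_inv_of_mul_eq_one_left this).trans (by
        rw [mul_inv_rev, inv_eq_of_mul_eq_one_right (o1 i hi), inv_eq_of_mul_eq_one_right (o1 j hj)])
    · have w : ∀ n ≤ 6, (∀ p ∈ twW n v, p < X22.n) ∧ wd e (twW n v) = phi o n v := fun n hn => by
        induction n with
        | zero => exact ⟨by simp [twW], rfl⟩
        | succ n ih =>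
          obtain ⟨i1, i2⟩ := ih (by omega)
          rw [show twW (n + 1) v = Bool.rec (twW n v) (i72 (t1 n) :: i72 (t2 n) :: twW n v) (Cov.tb v n) from rfl, phi]
          cases hb : Cov.tb v n
          · rw [if_neg (fun c => by rw [tb_iff.2 c] at hb; cases hb), one_mul]; exact ⟨i1, i2⟩
          · rw [if_pos (tb_iff.1 hb)]
            exact ⟨List.forall_mem_cons.2 ⟨lt _ (k n hn).1, List.forall_mem_cons.2 ⟨lt _ (k n hn).2.1, i1⟩⟩, by
              rw [← i2, mul_assoc]; exact (wd_cons _ _ _).trans (congrArg _ (wd_cons _ _ _))⟩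
      refine beq_iff.1 ((bor_iff.1 (allLt_spec chkTv v hv)).resolve_right fun c => ?_)
      obtain ⟨g, hg, c⟩ := anyLt_spec c
      exact ne_one_of_opl h.toReal (w 6 le_rfl).1 (hg.trans (by decide)) (bne_iff.1 c) ((w 6 le_rfl).2.trans a)
  have m : ∀ p < 72, e (i72 p) ∈ closure E := fun p hp => subset_closure ⟨p, hp, rfl⟩
  have oK : grp o 6 ≤ π.ker.map (closure E).subtype := (closure_le _).2 (by
    rintro _ ⟨i, hi, rfl⟩
    refine ⟨sub (closure E) (fun p => e (i72 p)) (t1 i) * sub (closure E) (fun p => e (i72 p)) (t2 i), ?_, by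
      rw [coe_subtype, coe_mul, sub_val (e := fun p => e (i72 p)) (m _ (k i hi).1),
        sub_val (e := fun p => e (i72 p)) (m _ (k i hi).2.1)]⟩
    rw [SetLike.mem_coe, MonoidHom.mem_ker, map_mul, π2 _ (k i hi).1 _ (k i hi).2.1 (k i hi).2.2.1, ← map_mul,
      show sub (closure E) (fun p => e (i72 p)) (t2 i) * sub (closure E) (fun p => e (i72 p)) (t2 i) = 1 from
        Subtype.ext (by
          rw [coe_mul, sub_val (e := fun p => e (i72 p)) (m _ (k i hi).2.1)]; exact r.toQReal.sq' _ (k i hi).2.1),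
      map_one])
  have oE := oK.trans (map_subtype_le _)
  have cO : Nat.card ((grp o 6).subgroupOf (closure E)) = 64 :=
    (Nat.card_congr (subgroupOfEquivOfLe oE).toEquiv).trans b.card
  have cl := card_le_of_le le
  obtain ⟨k1, k2⟩ := ker_eq_of_card π1 (O := (grp o 6).subgroupOf (closure E))
    ((comap_mono oK).trans (comap_map_eq_self_of_injective (subtype_injective _) _).le) (by rw [c, cO]; omega)
  rw [c, cO] at k2
  have eK := eq_of_le_of_card_ge le (by omega)
  have n : ((grp o 6).subgroupOf (closure E)).Normal := k1 ▸ inferInstance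
  refine ⟨closure E, grp o 6, fun g => by rw [eK]; rfl, ?_, ⟨⟨⟨fun x y => Subtype.ext (b.comm x.2 y.2).eq⟩⟩,
    fun x hx => (pow_two x).trans (b.sq hx)⟩, b.card, n,
    ⟨(QuotientGroup.quotientMulEquivOfEq k1).trans (QuotientGroup.quotientKerEquivOfSurjective π π1)⟩⟩
  rw [← le_antisymm (FG.Comp.le_pCore n b.isPGroup.comap_subtype)
    (k1 ▸ (Subgroup.map_eq_bot_iff _).1 (eq_bot_iff.2 (c2 ▸ FG.Comp.pCore_map_le 2 π π1))), map_subgroupOf_eq_of_le oE]

end OS

end CA.Fi3

theorem CA.Fi3.realizeEqnsOut : True := by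
  have := @CA.Fi3.Γ.eq_1.{0}
  have := @CA.Fi3.Γ.eq_def.{0}
  have := @CA.Fi3.Γ.congr_simp.{0}
  trivial
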